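import Mathlib
import Cfsg.Agent.Spor.Out.Leech
import Cfsg.Agent.Sym.PrimeCycle
import Cfsg.Agent.Perm.PrimeIndex

/-! A subgroup of the Higman-Sims group properly containing a symmetric group of degree eight is
the whole group. -/

set_option autoImplicit false
set_option maxRecDepth 100000

namespace Cfsg.Agent.Gr.HN

open Subgroup Equiv Equiv.Perm MulAction Cfsg.Agent.Spor Cfsg.Agent.Spor.OutC Cfsg.Agent.Spor.LC

theorem sift7 : allRange 0 100 (siftTop hs_T (fun _ => traceP hs_T [0, 6]) hs_inv 100 [3, 5, 11, 7, 8]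
    (acc1 hs_T (fun _ => traceP hs_T [0, 6]) [4, 14, 79, 63, 99] 7)
    ⟨hs_E 0, 4, 56, true, 0, [], []⟩ [⟨hs_E 1, 14, 59, false, 0, [0, 0], []⟩,
      ⟨hs_E 2, 79, 12, false, 0, [0, 0, 0, 0, 0, 0], []⟩, ⟨hs_E 3, 63, 94, false, 0, [0, 0, 0], []⟩,
      ⟨hs_E 4, 99, 35, false, 0, [0, 0], []⟩]) = true := by decide +kernel

theorem exists_seven : ∃ g : St2 vU vB, g ≠ 1 ∧ g ^ 7 = 1 ∧ ∀ a, a * g = g * a → a ∈ zpowers g := by
  have h := hs_model hs_inj hs_tabs0 card_HS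
  have h5 := h.sif.tabs.evalW (w := [0, 6]) (by decide)
  refine ⟨_, h.sif.tabs.ne_one hs_inj (w := [0, 6]) (by decide) (i := 56) (by decide)
    (by decide +kernel), eq_of_agreeF h.base h.sif.lt (h5.iterF 7) OutModel.tab_one
    (by decide +kernel), fun a ha => ?_⟩
  obtain ⟨w, h1, rfl, h3⟩ := h.sif.search (t := 1) (fun _ _ => h5) (fun _ _ => h5)
    (l := ⟨hs_E 0, 4, 56, true, 0, [], []⟩) (L := [⟨hs_E 1, 14, 59, false, 0, [0, 0], []⟩,
      ⟨hs_E 2, 79, 12, false, 0, [0, 0, 0, 0, 0, 0], []⟩, ⟨hs_E 3, 63, 94, false, 0, [0, 0, 0], []⟩,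
      ⟨hs_E 4, 99, 35, false, 0, [0, 0], []⟩])
    ⟨_, hs_sl0 hs_inj hs_tabs0 card_HS, _, hs_sl1 hs_inj hs_tabs0 card_HS, _,
      hs_sl2 hs_inj hs_tabs0 card_HS, _, hs_sl3 hs_inj hs_tabs0 card_HS, _,
      hs_sl4 hs_inj hs_tabs0 card_HS, rfl⟩ (by decide +kernel) (allRange_zero sift7)
    (c := a) (h.top ▸ trivial) fun _ _ => ha
  have h4 := h.sif.tabs.evalW h1
  unfold acc1 at h3
  rw [agreeF_of_eq h.sif.inj h.sif.lt (h4.mul h5) (h5.mul h4) ha, force_eq] at h3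
  by_contra hn
  rw [(allLt_iff _ _).2 fun j _ => ?_] at h3
  · exact absurd h3 (by decide)
  cases h6 : agreeF (traceP hs_T w) (iterF (traceP hs_T [0, 6]) j) [4, 14, 79, 63, 99] with
  | false => cases Nat.beq _ _ <;> rfl
  | true => exact absurd (eq_of_agreeF h.base h.sif.lt h4 (h5.iterF j) h6 ▸ npow_mem_zpowers _ j) hn

theorem not_index {U : Subgroup (Perm (Fin 8))} (h7 : 7 ∣ U.index) (h : U.index ≤ 21) : False := by
  have hc := U.index_mul_card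
  rw [Nat.card_perm, Nat.card_fin, show Nat.factorial 8 = 40320 from rfl] at hc
  have h0 := U.index_ne_zero_of_finite
  haveI : Fact (Nat.Prime 5) := ⟨by norm_num⟩
  obtain ⟨k, hk⟩ := Perm.exists_conj_mem_of_prime_not_dvd_index U (q := 5) (by omega)
    (x := List.formPerm [0, 1, 2, 3, 4]) (by decide)
  have c1 : (k * List.formPerm [0, 1, 2, 3, 4] * k⁻¹ : Perm (Fin 8)).IsCycle :=
    IsCycle.conj (List.isCycle_formPerm (by decide) (by decide))
  have c2 : (k * List.formPerm [0, 1, 2, 3, 4] * k⁻¹ : Perm (Fin 8)).support.card = 5 := by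
    rw [card_support_conj]; decide
  generalize k * List.formPerm [0, 1, 2, 3, 4] * k⁻¹ = u at hk c1 c2
  obtain ⟨x, hx, -⟩ := id c1
  have c3 := Sym.le_ncard_orbit_of_orderOf_prime hk (by rw [c1.orderOf, c2]; norm_num) hx
  rw [c1.orderOf, c2] at c3
  have c4 := relIndex_stabilizer U x
  have c5 := (Set.ncard_le_card (orbit U x)).trans_eq (Nat.card_fin 8)
  have c6 := relIndex_mul_index (inf_le_left : U ⊓ stabilizer (Perm (Fin 8)) x ≤ U)
  have c7 := index_dvd_of_le (inf_le_right : U ⊓ stabilizer (Perm (Fin 8)) x ≤ _)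
  rw [Sym.index_stabilizer_perm, Fintype.card_fin, ← c6, c4] at c7
  have c8 : (orbit U x).ncard = 8 := by
    obtain ⟨m, hm⟩ := h7
    have : m = 1 ∨ m = 2 ∨ m = 3 := by omega
    rcases this with rfl | rfl | rfl <;> rw [hm] at c7 <;> omega
  haveI := (isPretransitive_iff_orbit_eq_univ x).2
    ((Set.eq_univ_iff_ncard _).2 (c8.trans (Nat.card_fin 8).symm))
  have c9 := Sym.descFactorial_dvd_card (Sym.isMultiplyPretransitive_of_isCycle
    (Sym.isPreprimitive_of_isCycle hk c1 (by rw [c2]; norm_num) (by rw [c2]; decide)) hk c1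
    (by rw [c2]; norm_num) (c := 2) (by rw [c2]; rfl)) (by simp)
  rw [Nat.card_fin] at c9
  have := Nat.mul_dvd_mul h7 ((by decide : 7 ∣ Nat.descFactorial 8 (2 + 2)).trans c9)
  omega

variable {G : Type*} [Group G] [Finite G]

theorem index_mod {H : Subgroup G} {g : G} (hg : g ^ 7 = 1) (hH : g ∈ H)
    (hf : ∀ x, x⁻¹ * g * x ∈ H → x ∈ H) : H.index % 7 = 1 := by
  haveI : Fact (Nat.Prime 7) := ⟨by norm_num⟩
  have h1 : IsPGroup 7 (zpowers g) := IsPGroup.of_card_dvd_pow (n := 1) (by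
    rw [Nat.card_zpowers, pow_one]; exact orderOf_dvd_of_pow_eq_one hg)
  have h2 := h1.card_modEq_card_fixedPoints (G ⧸ H)
  rw [show fixedPoints (zpowers g) (G ⧸ H) = {((1 : G) : G ⧸ H)} from Set.ext fun x => ?_,
    Nat.card_coe_set_eq, Set.ncard_singleton] at h2
  · exact h2
  induction x using QuotientGroup.induction_on with | H x =>
  refine ⟨fun h => QuotientGroup.eq.2 ?_, fun h y => ?_⟩
  · simpa using hf x (by simpa [mul_assoc] using QuotientGroup.eq.1 (h ⟨g, mem_zpowers g⟩).symm)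
  · rw [Set.mem_singleton_iff.1 h]
    exact QuotientGroup.eq.2 (by simpa using zpowers_le.2 hH y.2)

/-- A cycle of length seven. -/
def g7 : Perm (Fin 8) := List.formPerm [0, 1, 2, 3, 4, 5, 6]

theorem index_ne {H : Subgroup G} (ρ : Perm (Fin 8) →* G) (hρ : ∀ σ, ρ σ ∈ H)
    (hf : ∀ x, x⁻¹ * ρ g7 * x ∈ H → x ∈ H) : H.index ≠ 22 := fun h => by
  haveI : Fact (Nat.Prime 7) := ⟨by norm_num⟩
  obtain ⟨x, hx⟩ : ∃ x, x ∉ H := by
    by_contra! k
    rw [(eq_top_iff' H).2 k, index_top] at h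
    omega
  refine not_index (U := (stabilizer G (x : G ⧸ H)).comap ρ) (by_contra fun k => ?_) ?_
  · obtain ⟨τ, hτ⟩ := Perm.exists_conj_mem_of_prime_not_dvd_index _ k (x := g7) (by decide)
    refine hx ((mul_mem_cancel_left (inv_mem (hρ τ))).1 (hf _ ?_))
    simpa [mul_assoc] using QuotientGroup.eq.1 (mem_stabilizer_iff.1 hτ).symm
  · rw [index_comap, ← inf_relIndex_right, inf_comm, relIndex_stabilizer]
    have h1 : orbit ρ.range (x : G ⧸ H) ⊆ {((1 : G) : G ⧸ H)}ᶜ := by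
      rintro _ ⟨⟨_, σ, rfl⟩, rfl⟩ e
      exact hx ((mul_mem_cancel_left (hρ σ)).1 (by simpa using QuotientGroup.eq.1 e.symm))
    have h2 := Set.ncard_add_ncard_compl {((1 : G) : G ⧸ H)}
    rw [Set.ncard_singleton, ← index_eq_card, h] at h2
    exact (Set.ncard_le_ncard h1).trans (by omega)

theorem mem_of_norm (ρ : Perm (Fin 8) →* G) (hC : ∀ a, a * ρ g7 = ρ g7 * a → a ∈ zpowers (ρ g7))
    (h1 : ρ g7 ≠ 1) {x : G} (hx : x * ρ g7 * x⁻¹ ∈ zpowers (ρ g7)) : x ∈ ρ.range := by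
  have h7 : ρ g7 ^ 7 = 1 := by rw [← map_pow, show g7 ^ 7 = 1 by decide, map_one]
  obtain ⟨k, hk⟩ := (mem_powers_iff_mem_zpowers.2 hx :)
  have h2 : ∀ i : Fin 7, i = 0 ∨ ∃ j : Fin 6, List.formPerm [1, 3, 2, 6, 4, 5] ^ j.1 * g7 =
      g7 ^ i.1 * List.formPerm [1, 3, 2, 6, 4, 5] ^ j.1 := by decide +kernel
  beta_reduce at hk
  rw [pow_eq_pow_mod k h7] at hk
  rcases h2 ⟨k % 7, Nat.mod_lt _ (by norm_num)⟩ with e | ⟨j, e⟩
  · rw [show k % 7 = 0 from congrArg Fin.val e, pow_zero] at hk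
    exact absurd (conj_eq_one_iff.1 hk.symm) h1
  · generalize (List.formPerm [1, 3, 2, 6, 4, 5] : Perm (Fin 8)) ^ j.1 = μ at e
    replace e := congrArg ρ e
    rw [map_mul, map_mul, map_pow, hk] at e
    refine (mul_mem_cancel_left (inv_mem (MonoidHom.mem_range.2 ⟨μ, rfl⟩))).1
      (zpowers_le.2 (MonoidHom.mem_range.2 ⟨g7, rfl⟩) (hC _ ?_))
    calc _ = (ρ μ)⁻¹ * (x * ρ g7 * x⁻¹ * ρ μ) * (ρ μ)⁻¹ * x := by group
      _ = _ := by rw [← e]; group

theorem eq_top_of_lt (hG : Nat.card G = 44352000) (ρ : Perm (Fin 8) →* G)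
    (hρ : Function.Injective ρ) (hC : ∀ a, a * ρ g7 = ρ g7 * a → a ∈ zpowers (ρ g7))
    {H : Subgroup G} (h : ρ.range < H) : H = ⊤ := by
  haveI : Fact (Nat.Prime 7) := ⟨by norm_num⟩
  have h7 : ρ g7 ^ 7 = 1 := by rw [← map_pow, show g7 ^ 7 = 1 by decide, map_one]
  have h1 : ρ g7 ≠ 1 := fun e => absurd (hρ (e.trans ρ.map_one.symm)) (by decide)
  have hf : ∀ L : Subgroup G, ρ.range ≤ L → ∀ x, x⁻¹ * ρ g7 * x ∈ L → x ∈ L := fun L hL x hx => by
    have h2 := ((zpowers (ρ g7)).subgroupOf L).index_mul_card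
    rw [Nat.card_congr (subgroupOfEquivOfLe (zpowers_le.2 (hL ⟨g7, rfl⟩))).toEquiv, Nat.card_zpowers,
      orderOf_eq_prime h7 h1] at h2
    have h3 := hG ▸ card_subgroup_dvd_card L
    obtain ⟨k, hk⟩ := Perm.exists_conj_mem_of_prime_not_dvd_index ((zpowers (ρ g7)).subgroupOf L)
      (q := 7) (fun e => absurd ((h2 ▸ Nat.mul_dvd_mul_right e 7).trans h3) (by norm_num))
      (x := ⟨_, hx⟩) (Subtype.ext (by
        simpa [h7] using conj_pow (a := x⁻¹) (b := ρ g7) (i := 7)))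
    exact inv_mem_iff.1 ((mul_mem_cancel_left k.2).1 (hL (mem_of_norm ρ hC h1
      (by simpa [mul_assoc] using mem_subgroupOf.1 hk))))
  have h2 := ρ.range.index_mul_card
  rw [← Nat.card_congr (MonoidHom.ofInjective hρ).toEquiv, Nat.card_perm, Nat.card_fin, hG,
    show Nat.factorial 8 = 40320 from rfl] at h2
  have h3 := relIndex_mul_index h.le
  have h4 := index_mod h7 (h.le ⟨g7, rfl⟩) (hf H h.le)
  have h5 := index_ne ρ (fun σ => h.le ⟨σ, rfl⟩) (hf H h.le)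
  have h6 : ρ.range.relIndex H ≠ 22 := index_ne (ρ.codRestrict H fun σ => h.le ⟨σ, rfl⟩)
    (fun σ => ⟨σ, rfl⟩) fun x hx => hf _ le_rfl x hx
  have h8 : ρ.range.relIndex H ≠ 1 := fun e => h.not_ge (relIndex_eq_one.1 e)
  have h9 : ∀ i ∈ Nat.divisors 1100, i % 7 = 1 → i = 1 ∨ i = 22 ∨ i = 50 ∨ i = 1100 := by
    decide +kernel
  rw [show ρ.range.index = 1100 by omega] at h3
  rcases h9 _ (Nat.mem_divisors.2 ⟨Dvd.intro_left _ h3, by norm_num⟩) h4 with e | e | e | e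
  · exact index_eq_one.1 e
  all_goals rw [e] at h3; omega

theorem cent_seven {g : St2 vU vB} (h1 : g ≠ 1) (h7 : g ^ 7 = 1) (a : St2 vU vB)
    (ha : a * g = g * a) : a ∈ zpowers g := by
  haveI := finite_Co0
  haveI : Fact (Nat.Prime 7) := ⟨by norm_num⟩
  obtain ⟨y, y1, y7, hy⟩ := exists_seven
  have h2 := (zpowers g).index_mul_card
  rw [Nat.card_zpowers, orderOf_eq_prime h7 h1, card_HS] at h2
  obtain ⟨k, hk⟩ := Perm.exists_conj_mem_of_prime_not_dvd_index (zpowers g) (q := 7) (by omega) y7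
  obtain ⟨m, hm⟩ := mem_zpowers_iff.1 (hy (k⁻¹ * a * k) (by
    have : Commute a (k * y * k⁻¹) := by
      obtain ⟨j, hj⟩ := mem_zpowers_iff.1 hk
      exact hj ▸ Commute.zpow_right ha j
    calc _ = k⁻¹ * (a * (k * y * k⁻¹)) * k := by group
      _ = _ := by rw [this.eq]; group))
  rw [show a = (k * y * k⁻¹) ^ m by rw [conj_zpow, hm]; group]
  exact zpow_mem hk m

/-- A product of two transpositions. -/
def u8 : Perm (Fin 8) := swap 0 1 * swap 2 3

/-- Generators of a four-group on the fixed points of `u8`. -/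
def s8 (b : Bool) : Perm (Fin 8) := if b then swap 4 5 * swap 6 7 else swap 4 6 * swap 5 7

theorem card_le {C : Subgroup (Perm (Fin 8))}
    (h : ∀ τ ∈ C, τ * u8 = u8 * τ ∧ ∀ b, τ * s8 b = s8 b * τ) : Nat.card C ≤ 32 := by
  have k : ∀ τ : C, (∀ i, τ.1 (u8 i) = u8 (τ.1 i)) ∧ ∀ b i, τ.1 (s8 b i) = s8 b (τ.1 i) := fun τ =>
    ⟨fun i => congrArg (· i) (h _ τ.2).1, fun b i => congrArg (· i) ((h _ τ.2).2 b)⟩
  refine (Nat.card_le_card_of_injective (β := {p : Fin 8 × Fin 8 × Fin 8 // u8 p.1 ≠ p.1 ∧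
    u8 p.2.1 ≠ p.2.1 ∧ p.2.1 ≠ p.1 ∧ u8 p.1 ≠ p.2.1 ∧ s8 true p.2.2 ≠ p.2.2})
    (fun τ => ⟨(τ.1 0, τ.1 2, τ.1 4), by
      simp only [← (k τ).1, ← (k τ).2, ne_eq, EmbeddingLike.apply_eq_iff_eq]; decide⟩)
    fun σ τ e => ?_).trans (by rw [Nat.card_eq_fintype_card]; decide +kernel)
  simp only [Subtype.mk.injEq, Prod.mk.injEq] at e
  have e1 : ∀ i, σ.1 i = τ.1 i → σ.1 (u8 i) = τ.1 (u8 i) := fun i e => by rw [(k _).1, (k _).1, e]
  have e2 : ∀ b i, σ.1 i = τ.1 i → σ.1 (s8 b i) = τ.1 (s8 b i) := fun b i e => by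
    rw [(k _).2, (k _).2, e]
  refine Subtype.ext (Equiv.ext fun i => ?_)
  fin_cases i
  exacts [e.1, e1 0 e.1, e.2.1, e1 2 e.2.1, e.2.2, e2 true 4 e.2.2, e2 false 4 e.2.2,
    e2 true _ (e2 false 4 e.2.2)]

theorem hs_top (ρ : Perm (Fin 8) →* St2 vU vB) (hρ : Function.Injective ρ)
    {H R : Subgroup (St2 vU vB)} (h1 : ∀ σ, ρ σ ∈ H) (h2 : R ≤ H) (h3 : 64 ≤ Nat.card R)
    (h4 : ∀ r ∈ R, r * ρ u8 = ρ u8 * r ∧
      ∀ b, r * ρ (s8 b) * r⁻¹ = ρ (s8 b) ∨ r * ρ (s8 b) * r⁻¹ = ρ u8 * ρ (s8 b)) : H = ⊤ := by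
  haveI := finite_Co0
  refine eq_top_of_lt card_HS ρ hρ (cent_seven
    (fun e => absurd (hρ (e.trans ρ.map_one.symm)) (by decide))
    (by rw [← map_pow, show g7 ^ 7 = 1 by decide, map_one]))
    (lt_of_le_of_ne (by rintro _ ⟨σ, rfl⟩; exact h1 σ) fun e => ?_)
  have h5 := card_le (C := R.comap ρ) fun τ hτ => by
    obtain ⟨k1, k2⟩ := h4 _ hτ
    refine ⟨hρ (by rw [map_mul, map_mul, k1]), fun b => ?_⟩
    simp only [← map_inv, ← map_mul, hρ.eq_iff] at k2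
    refine mul_inv_eq_iff_eq_mul.1 ((k2 b).resolve_right fun k => ?_)
    have := card_support_conj (σ := τ) (τ := s8 b)
    rw [k] at this
    revert this
    cases b <;> decide
  rw [← card_map_of_injective hρ, map_comap_eq_self (e ▸ h2)] at h5
  omega

end Cfsg.Agent.Gr.HN
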