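import Mathlib
import Cfsg.Agent.Gr.SubA
import Cfsg.Agent.Gr.Y0
import Cfsg.Agent.Spor.LC.HSMcL

/-! The centraliser of two commuting subgroups generated by axis involutions, seen in `Co0`. -/

set_option autoImplicit false

namespace Cfsg.Agent.Gr.HN

open Subgroup Cfsg.Agent.Spor Cfsg.Agent.Spor.Leech Cfsg.Agent.Spor.LC Cfsg.Agent.Spor.MT ActH

theorem sq_QK {q : K} (hq : q ∈ QK) : q * q = 1 ∨ q * q = zz := by
  obtain ⟨e, c, rfl⟩ := mem_QK.1 hq
  rw [tq_mul_self]
  rcases z2_cases (qL c) with h | h <;> rw [h]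
  exacts [Or.inl tq_zero, Or.inr rfl]

theorem eq_of_mem_QK {a d d' q : K} (ha : a ∈ DD) (hd : d ∈ DD) (hd' : d' ∈ DD) (h : a * d = zz)
    (c : Commute a d') (h5 : orderOf (d * d') = 5) (hq : q ∈ QK) (c1 : Commute q a)
    (c2 : Commute q d') : q = 1 ∨ q = a := by
  haveI := finite_K
  have c0 : Commute a d := Sub.comm_of_sq (DD_mul_self ha) (DD_mul_self hd) (h ▸ zz_mul_self)
  have hf : ∀ m, (d * d') ^ m = 1 → 5 ∣ m := fun m e => h5 ▸ orderOf_dvd_of_pow_eq_one e
  have e1 : zz * (d' * zz * d'⁻¹) = (d * d') ^ 2 := by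
    rw [← h, DD_inv hd', pow_two]
    simp only [mul_assoc, c.symm.left_comm, c0.symm.left_comm, DD_mul_cancel ha]
  have nc : ¬ Commute zz d' := fun k => by
    rw [← k.eq, mul_inv_cancel_right, zz_mul_self] at e1
    exact absurd (hf 2 e1.symm) (by decide)
  have e2 : zz * a = d := by rw [← h, c0.eq, mul_assoc, DD_mul_self ha, mul_one]
  have aQ : a ∈ QK := Sub.mem_QK_of_zz_mul ha (e2 ▸ hd)
  have typ : ∀ q ∈ QK, Commute q a → Commute q d' → q = 1 ∨ q ∈ DD := fun q hq c1 c2 => by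
    refine or_iff_not_imp_left.2 fun q1 => ?_
    have q2 : q ≠ zz := fun e => nc (e ▸ c2)
    obtain ⟨v, k, hv | hv⟩ := mdata.exists_type hq q1 q2
      ((sq_QK hq).resolve_right fun e => nc (e ▸ c2.mul_left c2))
    · rcases k with k | k <;> rw [k]
      · exact tq_cls_mem 0 hv
      · rw [zz_mul_tq]; exact tq_cls_mem _ hv
    obtain ⟨g, rfl⟩ := isConj_iff.1 (mdata.isConj_of_type_four ⟨tau, tau_zz_mem, tau_zz_ne⟩ k hv)
    obtain ⟨x, hx, e⟩ := (mdata.pair hq q2).z_mem
    replace e : g * x * g⁻¹ = zz := e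
    have e3 : g⁻¹ * (d * d') ^ 2 * g⁻¹⁻¹ ∈ QK := by
      have := mul_mem hx (conj_mem_QK (g := g⁻¹ * d' * g) (by
        calc _ = g⁻¹ * (g * zz * g⁻¹ * d') * g := by group
          _ = _ := by rw [c2.eq]; group) hx)
      convert this using 1
      rw [← e1, ← e]
      group
    have e4 : (g⁻¹ * (d * d') ^ 2 * g⁻¹⁻¹) ^ 4 = 1 := by
      rw [show 4 = 2 * 2 from rfl, pow_mul, pow_two, pow_two]
      rcases sq_QK e3 with e | e <;> rw [e]
      exacts [mul_one _, zz_mul_self]
    rw [conj_pow, conj_eq_one_iff, ← pow_mul] at e4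
    exact absurd (hf _ e4) (by decide)
  refine or_iff_not_imp_left.2 fun q1 => by_contra fun q2 => ?_
  have k1 := (typ q hq c1 c2).resolve_left q1
  have k2 := (typ _ (mul_mem hq aQ) (c1.mul_left (Commute.refl a)) (c2.mul_left c)).resolve_left
    fun e => q2 ((mul_eq_one_iff_eq_inv.1 e).trans (DD_inv ha))
  have k3 : Commute q zz := ((mdata.es.z_comm q hq :) : Commute zz q).symm
  have k4 : d ∈ O1 q := (mem_O1_iff k1).2 ⟨hd, by
    obtain ⟨e, l, k⟩ := mem_QK.1 (mul_mem hq aQ)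
    rw [← e2, k3.left_comm, k, zz_mul_tq]
    exact tq_mem_DD_iff.2 (tq_mem_DD_iff.1 (k ▸ k2))⟩
  have k5 : Commute q d := e2 ▸ k3.mul_right c1
  have k6 : (d * d') ^ 2 * d * ((d * d') ^ 2)⁻¹ = d' := by
    have := pow_orderOf_eq_one (d * d')
    rw [h5] at this
    rw [← mul_left_inj d', DD_mul_self hd', ← this]
    simp only [pow_succ, pow_zero, one_mul, mul_inv_rev, DD_inv hd, DD_inv hd', mul_assoc]
  obtain ⟨m, m1, m2, m3⟩ := O1_pow k1 k4 (k6 ▸ O1_conj k1 k4 ((k5.mul_right c2).pow_right 2).symm)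
  have := hf (m * 2) (by
    rw [pow_mul, pow_two]
    rcases m3 with e | e <;> rw [e]
    exacts [mul_one _, DD_mul_self k1])
  omega

theorem ip_ne {x v : Λ} (hx : nm x = 48) (hv : nm v = 32) : (ip x v).natAbs ≠ 32 := fun h => by
  have h1 := nm_add x v
  have h2 := nm_sub x v
  have h3 := nm_cases_of_le (y := x + v)
  have h4 := nm_cases_of_le (y := x - v)
  rw [← nm_eq_zero] at h3 h4
  omega

theorem exists_vec {v p e c y y' : Λ} (nv : nm v = 32) (np : nm p = 32) (ne : nm e = 32)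
    (nc : nm c = 32) (ny : nm y = 32) (ny' : nm y' = 32) (h1 : (ip v p).natAbs = 16) (h2 : (ip v e).natAbs = 16)
    (h3 : (ip p e).natAbs = 8) (h4 : (ip y y').natAbs = 8) (h5 : (ip y c).natAbs = 16) (h6 : (ip y' c).natAbs = 16)
    (h7 : (ip y v).natAbs = 8) (h8 : 16 ∣ ip v c) (h9 : (ip v c).natAbs ≠ 16)
    (hc : cls y + cls y' = cls p + cls e) :
    ∃ x, nm x = 48 ∧ (ip x v).natAbs = 16 ∧ cls x = cls p + cls e + cls c := by
  wlog k3 : ip p e = -8 generalizing e
  · simpa only [cls_neg] using this (e := -e) (nm_neg e ▸ ne) (by rwa [ip_neg_right, Int.natAbs_neg])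
      (by rwa [ip_neg_right, Int.natAbs_neg]) (by rwa [cls_neg]) (by rw [ip_neg_right]; omega)
  wlog k4 : ip y y' = -8 generalizing y'
  · exact this (y' := -y') (nm_neg y' ▸ ny') (by rwa [ip_neg_right, Int.natAbs_neg])
      (by rwa [ip_neg_left, Int.natAbs_neg]) (by rwa [cls_neg]) (by rw [ip_neg_right]; omega)
  wlog k5 : ip y c = 16 generalizing c
  · simpa only [cls_neg] using this (c := -c) (nm_neg c ▸ nc) (by rwa [ip_neg_right, Int.natAbs_neg])
      (by rwa [ip_neg_right, dvd_neg]) (by rwa [ip_neg_right, Int.natAbs_neg])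
      (by rwa [ip_neg_right, Int.natAbs_neg]) (by rw [ip_neg_right]; omega)
  have a1 : nm (p + e) = 48 := by rw [nm_add]; omega
  have a2 : nm (y + y') = 48 := by rw [nm_add]; omega
  have a3 := ip_ne a1 nv
  have a4 := ip_ne a2 nc
  have a5 : (ip (y + y') v).natAbs = (ip (p + e) v).natAbs := by
    rcases (cls_eq_iff.1 ((cls_add _ _).trans (hc.trans (cls_add _ _).symm))).eq_or_neg
      (by omega) (by omega) with e | e <;> rw [e]
    rw [ip_neg_left, Int.natAbs_neg]
  have a6 : ip v c = 0 := by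
    rcases ip_cases32 nv nc with rfl | rfl | e
    · omega
    · rw [ip_neg_right] at k5; omega
    · omega
  rw [ip_add_left, ip_comm p, ip_comm e] at a3
  rw [ip_add_left] at a4
  rw [ip_add_left, ip_add_left, ip_comm p, ip_comm e] at a5
  refine ⟨y' - y + c, ?_, ?_, by rw [cls_add, cls_sub, add_comm (cls y'), hc]⟩
  · rw [nm_add, nm_sub, ip_sub_left, ip_comm y' y]; omega
  · rw [ip_add_left, ip_sub_left, ip_comm c]; omega

theorem exists_theta {G : Type*} [Group G] {Q : Subgroup G} {z a w : G}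
    {π : centralizer ({z} : Set G) →* Cfsg.Spor.Co1} {r : Λ → G} (h : MData Q z π r) {v x : Λ}
    (hv : nm v = 32) (hx : nm x = 48) (k : (ip x v).natAbs = 16) (ha : Eqv z a (r v)) (hw : Eqv z w (r x))
    {M : Subgroup G} (h1 : M ≤ centralizer {z}) (h2 : ∀ m ∈ M, a * m = m * a ∧ w * m = m * w) :
    ∃ θ : M →* St2 vU vB, ∀ m, θ m = 1 ↔ m.1 ∈ Q := by
  wlog k' : ip x v = 16 generalizing v
  · exact this (v := -v) (nm_neg v ▸ hv) (by rwa [ip_neg_right, Int.natAbs_neg])
      (ha.trans h.zz (h.eqv_iff.2 (Cg.neg_self v).symm)) (by rw [ip_neg_right]; omega)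
  have hi : Function.Injective (pr.comp (St2 x v).subtype) :=
    (injective_iff_map_eq_one _).2 fun g hg => Subtype.ext ((pr_eq_one_iff.1 hg).resolve_right
      fun e => by
        have := (mem_St2.1 g.2).2
        rw [show g.1 = negOne from e, negOne_smul] at this
        have k := ip_neg_left v v
        rw [this, ip_self] at k
        omega)
  have hr : ∀ m : M, (π.comp (inclusion h1)) m ∈ (pr.comp (St2 x v).subtype).range := fun m => by
    have : ∀ g : Co0, pr g = π (inclusion h1 m) → g • v = v → g ∈ St2 x v := fun g hg e =>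
      mem_St2.2 ⟨((h.cg_of_comm hw (h2 _ m.2).2 hg).eq_or_neg (by rw [nm_smul]; omega)
        (by omega)).resolve_right fun e' => by
          have := ip_smul g x v
          rw [e, e', ip_neg_left] at this
          omega, e⟩
    obtain ⟨g, hg⟩ := pr_surjective (π (inclusion h1 m))
    rcases (h.cg_of_comm ha (h2 _ m.2).1 hg).eq_or_neg (by rw [nm_smul]; omega) (by omega) with e | e
    · exact ⟨⟨g, this g hg e⟩, hg⟩
    · have hg' := (pr_eq_iff.2 (Or.inr rfl)).trans hg
      exact ⟨⟨_, this _ hg' (by rw [mul_smul, e, negOne_smul, neg_neg])⟩, hg'⟩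
  obtain ⟨g, rfl, rfl⟩ := std_UB hx hv k'
  obtain ⟨e⟩ := nonempty_St2_smul g vU vB
  refine ⟨(((MonoidHom.ofInjective hi).symm.trans e).toMonoidHom).comp
    ((π.comp (inclusion h1)).codRestrict _ hr), fun m => ?_⟩
  rw [MonoidHom.comp_apply, MulEquiv.coe_toMonoidHom, map_eq_one_iff _ (MulEquiv.injective _),
    Subtype.ext_iff]
  exact h.ker _

end Cfsg.Agent.Gr.HN
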