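import Mathlib
import Cfsg.Agent.Gr.Count

/-! Invariant trilinear forms on the Griess algebra. -/

set_option autoImplicit false

namespace Cfsg.Agent.Gr.Nor

open Finset Matrix Cfsg.Agent.Spor Cfsg.Agent.Spor.Leech

attribute [local irreducible] Ev Oct ShS

theorem bM_inj : Function.Injective (bM : V →ₗ[ℝ] Module.Dual ℝ V) := by
  rw [← LinearMap.ker_eq_bot, LinearMap.ker_eq_bot']
  intro u hu
  by_contra h
  have := bM_pos h
  rw [hu] at this
  exact lt_irrefl _ this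

theorem exists_rp (φ : V →ₗ[ℝ] ℝ) : ∃ y : V, ∀ w, bM y w = φ w := by
  obtain ⟨y, hy⟩ := (LinearMap.injective_iff_surjective_of_finrank_eq_finrank
    Subspace.dual_finrank_eq.symm).1 bM_inj φ
  exact ⟨y, fun w => by rw [hy]⟩

theorem eq_of_bM {u v : V} (h : ∀ w, bM u w = bM v w) : u = v := bM_inj (LinearMap.ext h)

theorem map_rp {y y' : V} {g : K} (h : ∀ w, bM y' (g.1 w) = bM y w) : g.1 y = y' :=
  eq_of_bM fun w => by
    obtain ⟨w, rfl⟩ := g.1.surjective w
    rw [K_bM, h]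

theorem mM_O2 {u t : K} (hu : u ∈ DD) (ht : t ∈ O2 u) : mM (axis u) (axis t) = 0 := by
  have h0 : bM (axis u) (axis t) = 0 := ht.2
  have h1 := (ax_axis hu).even (axis t) ((fix_axis_iff ht.1).2 (O2_comm hu ht))
  rw [h0, mul_zero, zero_smul, add_zero] at h1
  by_contra h
  have h2 := bM_pos h
  rw [mM_comm (axis u) (axis t), ← bM_assoc, mM_comm (axis t), h1, map_smul, mM_comm, bM_assoc,
    (ax_axis ht.1).aa, bM_symm, h0, smul_zero] at h2
  exact lt_irrefl _ h2

theorem bM_O1_O2 {u s t : K} (hu : u ∈ DD) (hs : s ∈ O1 u) (ht : t ∈ O2 u) :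
    bM (axis (u * s)) (axis t) = bM (axis s) (axis t) := by
  have h := bM_assoc (axis s) (axis u) (axis t)
  rw [mM_O2 hu ht, map_zero, mM_comm, mM_axis hu hs, map_smul, map_sub, map_add,
    LinearMap.smul_apply, LinearMap.sub_apply, LinearMap.add_apply,
    show bM (axis u) (axis t) = 0 from ht.2, smul_eq_mul] at h
  linarith

/-- The hypotheses on the bilinear form `f (a, ·, ·)`. -/
structure Hb (β : V →ₗ[ℝ] V →ₗ[ℝ] ℝ) : Prop where
  inv : ∀ g : K, g * t0 = t0 * g → ∀ u v, β (g.1 u) (g.1 v) = β u v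
  l8 : ∀ v, β id8 v = 0
  r8 : ∀ v, β v id8 = 0
  l0 : ∀ v, β (axis t0) v = 0
  r0 : ∀ v, β v (axis t0) = 0
  dd : ∀ t ∈ DD, β (axis t) (axis t) = 0

variable {β : V →ₗ[ℝ] V →ₗ[ℝ] ℝ}

theorem Hb.flip (h : Hb β) : Hb β.flip :=
  ⟨fun g hg u v => h.inv g hg v u, h.r8, h.l8, h.r0, h.l0, h.dd⟩

theorem Hb.coef (h : Hb β) : ∃ p q r w : ℝ, ∀ s ∈ O1 t0, ∀ v, β (axis s) v =
    p * bM id8 v + q * bM (axis t0) v + r * bM (axis s) v + w * bM (axis (t0 * s)) v := by
  obtain ⟨y, hy⟩ := exists_rp (β (axis s0))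
  obtain ⟨p, q, r, w, e⟩ := fix_pair (v := y) fun g g1 g2 => map_rp fun v => by
    rw [hy, hy, ← h.inv g g1 _ v, (fix_axis_iff s0_mem.1).2 g2]
  refine ⟨p, q, r, w, fun s hs v => ?_⟩
  obtain ⟨g, g1, rfl⟩ := O1_trans t0_mem s0_mem hs
  obtain ⟨v, rfl⟩ := g.1.surjective v
  obtain ⟨a, b, c⟩ := axis_cj g1 s0_mem
  rw [← a, ← b, h.inv g g1, ← hy, e, K_bM, K_bM]
  conv_rhs => rw [← c, ← K_id8 g, K_bM, K_bM]
  simp only [map_add, map_smul, LinearMap.add_apply, LinearMap.smul_apply, smul_eq_mul]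

theorem Hb.rp_fix (h : Hb β) {v y : V} (hy : ∀ w, bM y w = β w v) {g : K} (hg : g * t0 = t0 * g)
    (hv : g.1 v = v) : g.1 y = y :=
  map_rp fun w => by rw [hy, hy, ← h.inv g hg w, hv]

theorem Hb.O1_zero (h : Hb β) {s : K} (hs : s ∈ O1 t0) (v : V) : β (axis s) v = 0 := by
  obtain ⟨p, q, r, w, e⟩ := h.coef
  have i0 : bM id8 (axis t0) = 1 := by rw [bM_symm, bM_axis_id8 t0_mem]
  have n0 : bM (axis t0) (axis t0) = 1 := lm_self t0_mem
  have e1 := e s0 s0_mem id8
  have e2 := e s0 s0_mem (axis t0)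
  have e3 := e s0 s0_mem (axis s0)
  have m0 := O1_mul t0_mem s0_mem
  rw [h.r8, bM_id8, bM_axis_id8 t0_mem, bM_axis_id8 s0_mem.1, bM_axis_id8 m0.1] at e1
  rw [h.r0, i0, n0, bM_symm (axis s0), bM_symm (axis (t0 * s0)),
    show bM (axis t0) (axis s0) = 1 / 8 from s0_mem.2,
    show bM (axis t0) (axis (t0 * s0)) = 1 / 8 from m0.2] at e2
  have m1 : bM (axis (t0 * s0)) (axis s0) = 1 / 8 := by
    have := (O1_mul s0_mem.1 (O1_symm t0_mem s0_mem)).2
    rw [← O1_comm t0_mem s0_mem] at this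
    rw [bM_symm]; exact this
  rw [h.dd _ s0_mem.1, bM_symm id8, bM_axis_id8 s0_mem.1,
    show bM (axis t0) (axis s0) = 1 / 8 from s0_mem.2,
    show bM (axis s0) (axis s0) = 1 from lm_self s0_mem.1, m1] at e3
  obtain ⟨y, hy⟩ := exists_rp (β.flip (axis (zz * t0)))
  have hf : t0.1 (axis (zz * t0)) = axis (zz * t0) :=
    (fix_axis_iff zt0_mem.1).2 (O2_comm t0_mem zt0_mem)
  have it : bM (axis (zz * t0)) id8 = 1 := bM_axis_id8 zt0_mem.1
  have i1 : bM (axis t0) (axis (zz * t0)) = 0 := zt0_mem.2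
  have hz := eq_zero_of_perp (v := y - (r + w) • axis (zz * t0) + ((r + w) / 47) • id8 -
    ((r + w) / 47) • axis t0) (by
      rw [map_sub, map_add, map_sub, map_smul, map_smul, map_smul, h.rp_fix hy rfl hf, hf, K_id8,
        (ax_axis t0_mem).mu_a]) (by
      simp only [map_sub, map_add, map_smul, LinearMap.sub_apply, LinearMap.add_apply,
        LinearMap.smul_apply, smul_eq_mul, hy, LinearMap.flip_apply, h.l8, it, bM_id8,
        bM_axis_id8 t0_mem]
      ring) (by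
      simp only [map_sub, map_add, map_smul, LinearMap.sub_apply, LinearMap.add_apply,
        LinearMap.smul_apply, smul_eq_mul, hy, LinearMap.flip_apply, h.l0, i0, n0,
        bM_symm (axis (zz * t0)), i1]
      ring) (fun s hs hs' => by
      simp only [map_sub, map_add, map_smul, LinearMap.sub_apply, LinearMap.add_apply,
        LinearMap.smul_apply, smul_eq_mul, hy, LinearMap.flip_apply, hs', e s ⟨hs, hs'⟩,
        bM_O1_O2 t0_mem ⟨hs, hs'⟩ zt0_mem, bM_symm id8, bM_axis_id8 hs, it, i1,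
        bM_symm (axis (zz * t0))]
      linarith)
  have h4 := congrArg (fun u => bM u (axis (zz * t0))) hz
  simp only [map_sub, map_add, map_smul, LinearMap.sub_apply, LinearMap.add_apply,
    LinearMap.smul_apply, smul_eq_mul, hy, LinearMap.flip_apply, h.dd _ zt0_mem.1, bM_symm id8,
    it, i1, map_zero, LinearMap.zero_apply,
    show bM (axis (zz * t0)) (axis (zz * t0)) = 1 from lm_self zt0_mem.1] at h4
  rw [e s hs, show p = 0 by linarith, show q = 0 by linarith, show r = 0 by linarith,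
    show w = 0 by linarith]
  ring

theorem Hb.plus (h : Hb β) (u : V) {v : V} (hv : t0.1 v = v) : β u v = 0 := by
  obtain ⟨y, hy⟩ := exists_rp (β.flip v)
  have := eq_zero_of_perp (h.rp_fix hy rfl hv) (by rw [hy]; exact h.l8 v) (by rw [hy]; exact h.l0 v)
    fun s hs hs' => by rw [hy]; exact h.O1_zero ⟨hs, hs'⟩ v
  rw [← LinearMap.flip_apply, ← hy, this, map_zero, LinearMap.zero_apply]

/-- The basis vector of a short class. -/
def xs (c : LL) : V := (0, sx c, 0)

theorem bM_xs (v : V) {c : LL} (hc : c ∈ ShS) : bM v (xs c) = xt v.2.1 c / 32 := by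
  rw [bM_apply, B_apply, sum_eq_single_of_mem (⟨c, hc⟩ : Sh) (mem_univ _) fun s _ hs => by
    change _ * (if s.1 = c then 1 else 0) = 0
    rw [if_neg fun e => hs (Subtype.ext e), mul_zero]]
  simp only [xs, sx, ZeroMemClass.coe_zero, Matrix.mul_zero, trace_zero, transpose_zero, if_true,
    mul_one, zero_add, zero_div, add_zero]
  rw [← xt_coe v.2.1]

theorem tq_xs (e : ZMod 2) {l c : LL} (h : pol l c = 0) : (tq e l).1 (xs c) = xs c := by
  rw [tq_apply]
  refine Prod.ext rfl (Prod.ext (funext fun s => ?_) ?_)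
  · change sgn (pol l s) * sx c s = sx c s
    unfold sx
    split_ifs with a
    · rw [a, h, sgn_zero, one_mul]
    · rw [mul_zero]
  · change sgn e • ((0 : Matrix Pt Cd ℝ) * _) = 0
    rw [Matrix.zero_mul, smul_zero]

theorem S_zero_of_neg {y : V} (h : t0.1 y = -y) : y.1 = 0 := by
  rw [t0, tq_apply] at h
  have : y.1 = -y.1 := congrArg Prod.fst h
  rwa [eq_neg_iff_add_eq_zero, ← two_smul ℝ, smul_eq_zero, or_iff_right two_ne_zero] at this

theorem xt_zero_of_neg {y : V} (h : t0.1 y = -y) {c : LL} (hc : pol c0 c = 0) :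
    xt y.2.1 c = 0 := by
  have := xt_tq 0 c0 y c
  rw [show tq 0 c0 = t0 from rfl, h, hc, sgn_zero, Prod.snd_neg, Prod.fst_neg,
    ← neg_one_smul ℝ, xt_smul] at this
  linarith

theorem Hb.xs_zero (h : Hb β) {c : LL} (hc : c ∈ ShS) (hp : pol c0 c = 1) (v : V) :
    β (xs c) v = 0 := by
  obtain ⟨y, hy⟩ := exists_rp (β (xs c))
  have hn : t0.1 (xs c) = -xs c := by
    rw [t0, tq_apply]
    refine Prod.ext (neg_zero.symm) (Prod.ext (funext fun s => ?_) ?_)
    · change sgn (pol c0 s) * sx c s = -sx c s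
      unfold sx
      split_ifs with a
      · rw [a, hp, sgn_one, mul_one]
      · rw [mul_zero, neg_zero]
    · change sgn 0 • ((0 : Matrix Pt Cd ℝ) * _) = -0
      rw [Matrix.zero_mul, smul_zero, neg_zero]
  have hy' : t0.1 y = -y := map_rp fun w => by
    rw [map_neg, LinearMap.neg_apply, hy, hy, ← h.inv t0 rfl _ w, hn, map_neg, LinearMap.neg_apply]
  have hW := FixH.W_zero (h.flip.rp_fix (v := xs c) hy zz_comm_t0 (tq_xs 1 (pol_zero_left c)))
  have hX : ∀ r, r ≠ c → xt y.2.1 r = 0 := fun r hr => by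
    by_cases h1 : r ∈ ShS
    swap
    · exact xt_of_not_mem _ h1
    rcases ActH.z2_cases (pol c0 r) with h2 | h2
    · exact xt_zero_of_neg hy' h2
    have : ¬ ∀ l, pol l c0 = 0 → pol l c = 0 → pol l r = 0 := fun H => by
      rcases mem_span_of_pol H with e | e | e | e
      · exact FixH.ne_zero_of_mem h1 e
      · rw [e, pol_self] at h2; exact zero_ne_one h2
      · exact hr e
      · rw [AA.pol_of_add_mem c0_mem hc (e ▸ h1)] at hp; exact zero_ne_one hp
    push Not at this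
    obtain ⟨l, l1, l2, l3⟩ := this
    exact FixH.xt_zero_of_pol (h.flip.rp_fix (v := xs c) hy (tq_comm_iff.2 l1) (tq_xs 0 l2))
      ((ActH.z2_cases _).resolve_left l3)
  have hc0 : xt y.2.1 c = 0 := by
    have e1 := h.dd _ (AL.tq_mem 0 hc)
    have e2 : aq 0 c = (⟨rr c, rr_isSymm c⟩, 0, 0) + (-4 : ℝ) • xs c := by
      refine Prod.ext (Subtype.ext ?_) (Prod.ext ?_ ?_)
      · simp [xs, ActH.aq_S]
      · change (4 * -sgn 0) • sx c = 0 + (-4 : ℝ) • sx c
        rw [sgn_zero, zero_add]; norm_num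
      · simp [xs, ActH.aq_W]
    have e3 : t0.1 ((⟨rr c, rr_isSymm c⟩, 0, 0) : V) = (⟨rr c, rr_isSymm c⟩, 0, 0) := by
      rw [t0, tq_apply]
      refine Prod.ext rfl (Prod.ext (funext fun s => mul_zero _) ?_)
      change sgn 0 • ((0 : Matrix Pt Cd ℝ) * _) = 0
      rw [Matrix.zero_mul, smul_zero]
    rw [axis_tq 0 hc, e2, map_add, h.plus _ e3, zero_add, map_smul, map_add, LinearMap.add_apply,
      show β _ (xs c) = 0 from h.flip.plus _ e3, zero_add, map_smul, LinearMap.smul_apply, ← hy,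
      bM_xs _ hc, smul_eq_mul, smul_eq_mul] at e1
    linarith
  have : y = 0 := Prod.ext (S_zero_of_neg hy') (Prod.ext (funext fun s => by
    rw [← xt_coe y.2.1]
    by_cases a : s.1 = c
    · rw [a, hc0]; rfl
    · exact hX _ a) hW)
  rw [← hy, this, map_zero, LinearMap.zero_apply]

theorem Hb.xt_minus (h : Hb β) {v y : V} (hv : t0.1 v = -v) (hy : ∀ w, bM y w = β w v) :
    t0.1 y = -y ∧ ∀ c, xt y.2.1 c = 0 := by
  have hy' : t0.1 y = -y := map_rp fun w => by
    rw [map_neg, LinearMap.neg_apply, hy, hy, ← h.inv t0 rfl w, hv, map_neg]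
  refine ⟨hy', fun c => ?_⟩
  by_cases h1 : c ∈ ShS
  swap
  · exact xt_of_not_mem _ h1
  rcases ActH.z2_cases (pol c0 c) with h2 | h2
  · exact xt_zero_of_neg hy' h2
  have := hy (xs c)
  rw [h.xs_zero h1 h2, bM_xs _ h1] at this
  linarith

theorem Hb.minus (h : Hb β) (u : V) {v : V} (hv : t0.1 v = -v) : β u v = 0 := by
  obtain ⟨y, hy⟩ := exists_rp (β.flip v)
  have k : ∀ {v y : V}, t0.1 v = -v → (∀ w, bM y w = β w v) →
      t0.1 (tau.1 v) = -tau.1 v ∧ ∀ w, bM (tau.1 y) w = β w (tau.1 v) := fun {v y} hv hy => by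
    refine ⟨?_, fun w => ?_⟩
    · change (t0 * tau).1 v = _
      rw [← tau_t0, ← map_neg, ← hv]; rfl
    · obtain ⟨w, rfl⟩ := tau.1.surjective w
      rw [K_bM, h.inv _ tau_t0, hy]
  obtain ⟨a1, a2⟩ := h.xt_minus hv hy
  obtain ⟨k1, k2⟩ := k hv hy
  obtain ⟨k3, k4⟩ := k k1 k2
  have hZ : cZ y = 0 := by
    rw [← cX_tauF, ← tau_apply]; exact funext₂ fun _ _ => (h.xt_minus k1 k2).2 _
  have hY : cY y = 0 := by
    rw [← cZ_tauF, ← cX_tauF, ← tau_apply, ← tau_apply]
    exact funext₂ fun _ _ => (h.xt_minus k3 k4).2 _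
  have : y = 0 := Prod.ext (S_zero_of_neg a1) (Prod.ext (funext fun s => by
    rw [← xt_coe y.2.1, a2]; rfl) (by
      ext i d
      rw [W_eq, hZ, hY]
      simp))
  rw [← LinearMap.flip_apply, ← hy, this, map_zero, LinearMap.zero_apply]

theorem Hb.zero (h : Hb β) (u v : V) : β u v = 0 := by
  have e : v = (1 / 2 : ℝ) • (v + t0.1 v) + (1 / 2 : ℝ) • (v - t0.1 v) := by module
  have m := (ax_axis t0_mem).mu_mu v
  rw [e, map_add, h.plus u, h.minus u, add_zero]
  · rw [map_smul, map_sub, m]; module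
  · rw [map_smul, map_add, m, add_comm]

/-- An invariant trilinear form killing the identity and the cube of an axis vanishes. -/
theorem tri_zero (f : V →ₗ[ℝ] V →ₗ[ℝ] V →ₗ[ℝ] ℝ)
    (hf : ∀ (g : K) u v w, f (g.1 u) (g.1 v) (g.1 w) = f u v w) (h1 : ∀ u v, f id8 u v = 0)
    (h2 : ∀ u v, f u id8 v = 0) (h3 : ∀ u v, f u v id8 = 0)
    (h0 : f (axis t0) (axis t0) (axis t0) = 0) (u v w : V) : f u v w = 0 := by
  have k : ∀ t ∈ DD, ∀ φ : V →ₗ[ℝ] ℝ, (∀ g : K, g.1 (axis t) = axis t → ∀ w, φ (g.1 w) = φ w) →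
      φ id8 = 0 → φ (axis t) = 0 → ∀ w, φ w = 0 := fun t ht φ a b c w => by
    obtain ⟨y, hy⟩ := exists_rp φ
    obtain ⟨p, q, e⟩ := fix_one ht (v := y) fun g hg => map_rp fun w => by
      rw [hy, hy, a g ((fix_axis_iff ht).2 hg)]
    rw [← hy, e] at b c ⊢
    simp only [map_add, map_smul, LinearMap.add_apply, LinearMap.smul_apply, smul_eq_mul, bM_id8,
      bM_axis_id8 ht, bM_symm id8 (axis t), show bM (axis t) (axis t) = 1 from lm_self ht] at b c ⊢
    rw [show p = 0 by linarith, show q = 0 by linarith]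
    ring
  have h0' : ∀ t ∈ DD, f (axis t) (axis t) (axis t) = 0 := fun t ht => by
    obtain ⟨g, rfl⟩ := exists_conj_DD t0_mem ht
    rw [axis_conj g t0_mem, hf, h0]
  have H : Hb (f (axis t0)) := ⟨fun g hg u v => by
      conv_lhs => rw [← (fix_axis_iff t0_mem).2 hg, hf], h2 _, h3 _,
    k _ t0_mem (f (axis t0) (axis t0)) (fun g hg w => by
      conv_lhs => rw [← hg, hf]) (h3 _ _) h0,
    k _ t0_mem ((f (axis t0)).flip (axis t0)) (fun g hg w => by
      rw [LinearMap.flip_apply, LinearMap.flip_apply]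
      conv_lhs => rw [← hg, hf]) (h2 _ _) h0,
    fun t ht => k t ht ((f.flip (axis t)).flip (axis t)) (fun g hg w => by
      simp only [LinearMap.flip_apply]
      conv_lhs => rw [← hg, hf]) (h1 _ _) (h0' t ht) _⟩
  have hu : u ∈ Submodule.span ℝ (axis '' DD) := span_axis ▸ Submodule.mem_top
  induction hu using Submodule.span_induction with
  | mem x hx =>
    obtain ⟨t, ht, rfl⟩ := hx
    obtain ⟨g, rfl⟩ := exists_conj_DD t0_mem ht
    obtain ⟨v, rfl⟩ := g.1.surjective v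
    obtain ⟨w, rfl⟩ := g.1.surjective w
    rw [axis_conj g t0_mem, hf, H.zero]
  | zero => simp
  | add x y _ _ hx hy => simp [hx, hy]
  | smul a x _ hx => simp [hx]

end Cfsg.Agent.Gr.Nor
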