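import Mathlib
import Cfsg.Agent.Gr.Norton

/-! The representation on the orthogonal complement of the identity of the Griess algebra. -/

set_option autoImplicit false

namespace Cfsg.Agent.Gr.Nor

open Finset

theorem exists_split : ∃ (ι : (Fin 196883 → ℝ) →ₗ[ℝ] V) (π : V →ₗ[ℝ] (Fin 196883 → ℝ)),
    (∀ x, π (ι x) = x) ∧ ∀ v, ι (π v) = v - (bM id8 v / 48) • id8 := by
  have hs : Function.Surjective (bM id8) := fun x =>
    ⟨(x / 48) • id8, by rw [map_smul, smul_eq_mul, bM_id8, div_mul_cancel₀ _ (by norm_num)]⟩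
  have hU : Module.finrank ℝ (LinearMap.ker (bM id8)) = 196883 := by
    have := (bM id8).finrank_range_add_finrank_ker
    rw [LinearMap.range_eq_top.2 hs, finrank_top, Module.finrank_self, finrank_V] at this
    omega
  have := Module.Free.of_divisionRing ℝ (LinearMap.ker (bM id8))
  have E := (Module.finBasisOfFinrankEq ℝ _ hU).equivFun
  let P : V →ₗ[ℝ] LinearMap.ker (bM id8) :=
    (LinearMap.id - (1 / 48 : ℝ) • (bM id8).smulRight id8).codRestrict _ fun v => by
      simp only [LinearMap.mem_ker, LinearMap.sub_apply, LinearMap.id_apply, LinearMap.smul_apply,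
        LinearMap.smulRight_apply, map_sub, map_smul, bM_id8, smul_eq_mul]
      ring
  have hP : ∀ v, (P v : V) = v - (bM id8 v / 48) • id8 := fun v => by
    change v - (1 / 48 : ℝ) • bM id8 v • id8 = _
    rw [smul_smul]; congr 2; ring
  refine ⟨(LinearMap.ker (bM id8)).subtype ∘ₗ E.symm.toLinearMap, E.toLinearMap ∘ₗ P,
    fun x => ?_, fun v => ?_⟩
  · change E (P (E.symm x)) = x
    rw [show P (E.symm x) = E.symm x from Subtype.ext (by
      rw [hP, show bM id8 (E.symm x) = 0 from (E.symm x).2, zero_div, zero_smul, sub_zero]),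
      E.apply_symm_apply]
  · change ((E.symm (E (P v)) : LinearMap.ker (bM id8)) : V) = _
    rw [E.symm_apply_apply, hP]

theorem bM_id8_K (g : K) (v : V) : bM id8 (g.1 v) = bM id8 v := by
  conv_lhs => rw [← K_id8 g, K_bM]

theorem exists_avg {t : K} (ht : t ∈ DD) {v : V} (h1 : bM id8 v = 0) (h2 : bM (axis t) v ≠ 0)
    {W : Submodule ℝ V} (hW : ∀ g : K, g.1 v ∈ W) : axis t - (1 / 48 : ℝ) • id8 ∈ W := by
  classical
  let C := Subgroup.centralizer ({t} : Set K)
  have : Fintype C := Fintype.ofFinite C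
  have hC : ∀ g : K, g ∈ C ↔ g * t = t * g := fun g => Subgroup.mem_centralizer_singleton_iff
  obtain ⟨p, q, e⟩ := fix_one ht (v := ∑ g : C, g.1.1 v) fun h hh => by
    rw [map_sum, ← Equiv.sum_comp (Equiv.mulLeft (⟨h, (hC h).2 hh⟩ : C)) fun g : C => g.1.1 v]
    rfl
  have e1 := congrArg (bM id8) e
  have e2 := congrArg (bM (axis t)) e
  rw [map_sum, sum_eq_zero fun g _ => (bM_id8_K _ v).trans h1, map_add, map_smul, map_smul, bM_id8,
    bM_symm, bM_axis_id8 ht, smul_eq_mul, smul_eq_mul] at e1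
  rw [map_sum, sum_congr rfl (g := fun _ => bM (axis t) v) fun g _ => by
    conv_lhs => rw [← (fix_axis_iff ht).2 ((hC _).1 g.2), K_bM], sum_const, map_add, map_smul,
    map_smul, bM_axis_id8 ht, show bM (axis t) (axis t) = 1 from lm_self ht, nsmul_eq_mul,
    smul_eq_mul, smul_eq_mul] at e2
  have hq : q ≠ 0 := fun hq => mul_ne_zero (Nat.cast_ne_zero.2 (card_ne_zero.2 univ_nonempty)) h2
    (e2.trans (by linarith))
  have : axis t - (1 / 48 : ℝ) • id8 = q⁻¹ • (p • id8 + q • axis t) := by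
    rw [show p = -(q * (1 / 48)) by linarith, smul_add, smul_smul, smul_smul, mul_neg,
      inv_mul_cancel_left₀ hq, inv_mul_cancel₀ hq]
    module
  rw [this, ← e]
  exact W.smul_mem _ (W.sum_mem fun g _ => hW g)

theorem pair {M X : Type*} [Group M] [AddCommGroup X] [Module ℝ X] (e : M ≃* K) (ι : X →ₗ[ℝ] V)
    (π : V →ₗ[ℝ] X) (h1 : ∀ x, π (ι x) = x) (h2 : ∀ v, ι (π v) = v - (bM id8 v / 48) • id8) :
    ∃ ρ : Representation ℝ M X, Function.Injective ρ ∧
    (∀ W : Submodule ℝ X, (∀ g : M, W.map (ρ g) ≤ W) → W = ⊥ ∨ W = ⊤) ∧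
    (∃ B : LinearMap.BilinForm ℝ X, B ≠ 0 ∧ (∀ u v, B u v = B v u) ∧
      ∀ (g : M) (u v : X), B (ρ g u) (ρ g v) = B u v) ∧
    ∃ m : X →ₗ[ℝ] X →ₗ[ℝ] X, m ≠ 0 ∧ (∀ u v, m u v = m v u) ∧
      (∀ (g : M) (u v : X), m (ρ g u) (ρ g v) = ρ g (m u v)) ∧ ∀ m' : X →ₗ[ℝ] X →ₗ[ℝ] X,
      (∀ (g : M) (u v : X), m' (ρ g u) (ρ g v) = ρ g (m' u v)) → ∃ c : ℝ, m' = c • m := by
  have hi : Function.Injective ι := Function.LeftInverse.injective h1
  have h8 : π id8 = 0 := hi (by rw [h2, bM_id8, map_zero]; norm_num)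
  have hb : ∀ x, bM id8 (ι x) = 0 := fun x => by
    have := congrArg (bM id8) (h2 (ι x))
    rw [h1, map_sub, map_smul, bM_id8, smul_eq_mul] at this
    linarith
  have hπ : ∀ (g : K) v, π (g.1 (ι (π v))) = π (g.1 v) := fun g v => by
    rw [h2, map_sub, map_smul, K_id8, map_sub, map_smul, h8, smul_zero, sub_zero]
  have hι : ∀ (g : K) x, ι (π (g.1 (ι x))) = g.1 (ι x) := fun g x => by
    rw [h2, bM_id8_K, hb, zero_div, zero_smul, sub_zero]
  let ρ : Representation ℝ M X :=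
    { toFun := fun g => π ∘ₗ ((e g).1 : V →ₗ[ℝ] V) ∘ₗ ι
      map_one' := LinearMap.ext fun x => by rw [map_one]; exact h1 x
      map_mul' := fun g h => LinearMap.ext fun x => by
        rw [map_mul]; exact (hπ (e g) ((e h).1 (ι x))).symm }
  have hρ : ∀ g x, ρ g x = π ((e g).1 (ι x)) := fun _ _ => rfl
  have ha : ∀ t ∈ DD, ι (π (axis t)) = axis t - (1 / 48 : ℝ) • id8 := fun t ht => by
    rw [h2, bM_symm, bM_axis_id8 ht]
  have n0 : bM (axis t0) (axis t0) = 1 := lm_self t0_mem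
  have hb0 : bM (ι (π (axis t0))) (axis t0) = 47 / 48 := by
    rw [ha _ t0_mem, map_sub, map_smul, LinearMap.sub_apply, LinearMap.smul_apply, n0, bM_symm,
      bM_axis_id8 t0_mem]
    norm_num
  have hn : ι (π (axis t0)) ≠ 0 := fun h => by
    rw [h, map_zero, LinearMap.zero_apply] at hb0
    norm_num at hb0
  let m : X →ₗ[ℝ] X →ₗ[ℝ] X := (mM.compl₁₂ ι ι).compr₂ π
  have hm : ∀ u v, m u v = π (mM (ι u) (ι v)) := fun _ _ => rfl
  have hm0 : m (π (axis t0)) (π (axis t0)) = (23 / 24 : ℝ) • π (axis t0) := by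
    rw [hm, ha _ t0_mem]
    simp only [map_sub, map_smul, LinearMap.sub_apply, LinearMap.smul_apply, (ax_axis t0_mem).aa,
      mM_id8, mM_comm _ id8, h8]
    module
  have hmρ : ∀ (g : M) (u v : X), m (ρ g u) (ρ g v) = ρ g (m u v) := fun g u v => by
    rw [hm, hm, hρ, hρ, hρ, hι, hι, hπ, K_mM]
  refine ⟨ρ, (injective_iff_map_eq_one _).2 fun g hg => ?_, fun W hW => ?_,
    ⟨bM.compl₁₂ ι ι, fun h => ?_, fun u v => bM_symm _ _, fun g u v => ?_⟩, m, fun h => ?_,
    fun u v => by rw [hm, hm, mM_comm], hmρ, fun m' hm' => ?_⟩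
  · refine e.injective (Subtype.ext (LinearEquiv.ext fun v => ?_))
    have := hι (e g) (π v)
    rw [← hρ, hg, Module.End.one_apply, h2, map_sub, map_smul, K_id8, sub_left_inj] at this
    rw [← this, map_one]; rfl
  · refine or_iff_not_imp_left.2 fun h => ?_
    obtain ⟨x, hx, hx0⟩ := Submodule.exists_mem_ne_zero_of_ne_bot h
    have hW' : ∀ (g : K) x, x ∈ W → π (g.1 (ι x)) ∈ W := fun g x hx => by
      have := hW (e.symm g) ⟨x, hx, rfl⟩
      rwa [hρ, e.apply_symm_apply] at this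
    have : ¬ ∀ t ∈ DD, bM (axis t) (ι x) = 0 := fun H =>
      hx0 (hi ((AL.eq_zero_of_perp H).trans (map_zero ι).symm))
    push Not at this
    obtain ⟨t, ht, hne⟩ := this
    have h3 : π (axis t) ∈ W := by
      have := exists_avg ht (hb x) hne (W := W.comap π) fun g => hW' g x hx
      rwa [Submodule.mem_comap, map_sub, map_smul, h8, smul_zero, sub_zero] at this
    have h4 : Submodule.span ℝ (axis '' DD) ≤ W.comap π := Submodule.span_le.2 (by
      rintro _ ⟨s, hs, rfl⟩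
      obtain ⟨g, rfl⟩ := exists_conj_DD ht hs
      have := hW' g _ h3
      rwa [hπ, ← axis_conj g ht] at this)
    rw [span_axis] at h4
    exact eq_top_iff.2 fun y _ => h1 y ▸ h4 (Submodule.mem_top (x := ι y))
  · have := bM_pos hn
    rw [show bM (ι (π (axis t0))) (ι (π (axis t0))) = 0 from
      LinearMap.congr_fun₂ h (π (axis t0)) (π (axis t0))] at this
    exact lt_irrefl _ this
  · change bM (ι (ρ g u)) (ι (ρ g v)) = bM (ι u) (ι v)
    rw [hρ, hρ, hι, hι, K_bM]
  · rw [h, LinearMap.zero_apply, LinearMap.zero_apply, eq_comm, smul_eq_zero,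
      or_iff_right (by norm_num)] at hm0
    exact hn (by rw [hm0, map_zero])
  · obtain ⟨c, hc⟩ : ∃ c : ℝ, bM (ι (m' (π (axis t0)) (π (axis t0)))) (axis t0) =
      c * (23 / 24 * (47 / 48)) := ⟨_, (div_mul_cancel₀ _ (by norm_num)).symm⟩
    let f : V →ₗ[ℝ] V →ₗ[ℝ] V →ₗ[ℝ] ℝ := ((m' - c • m).compl₁₂ π π).compr₂ (bM ∘ₗ ι)
    have hf : ∀ u v w, f u v w = bM (ι (m' (π u) (π v) - c • m (π u) (π v))) w := fun _ _ _ => rfl
    have H := tri_zero f (fun g u v w => by
        obtain ⟨g, rfl⟩ := e.surjective g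
        rw [hf, hf, ← hπ _ u, ← hπ _ v, ← hρ, ← hρ, hm', hmρ, ← map_smul, ← map_sub, hρ, hι, K_bM])
      (fun u v => by simp [hf, h8]) (fun u v => by simp [hf, h8])
      (fun u v => by rw [hf, bM_symm, hb]) (by
        rw [hf, hm0, map_sub, map_sub, LinearMap.sub_apply, hc, map_smul, map_smul, map_smul,
          map_smul, LinearMap.smul_apply, LinearMap.smul_apply, hb0, smul_eq_mul, smul_eq_mul,
          sub_self])
    refine ⟨c, LinearMap.ext₂ fun u v => sub_eq_zero.1 (hi (eq_of_bM fun w => ?_))⟩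
    have := H (ι u) (ι v) w
    rw [hf, h1, h1] at this
    rw [map_zero, map_zero, LinearMap.zero_apply]
    exact this

end Cfsg.Agent.Gr.Nor
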